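import Cfsg.Agent.Lib.Helper21.Uni.Defs

set_option autoImplicit false

namespace Cfsg.Agent.Lib.Helper19.Uni

open Matrix Module Cfsg Cfsg.Agent.Lib.Helper67.Elus
open Cfsg.Agent.Lib.Helper21.Uni

variable {F : Type*} [Field F]
variable {ι : Type} [Fintype ι] [DecidableEq ι]

/-- B2 -/
theorem exists_end_of_realM (Q : QuadraticForm F (ι → F)) (G : Matrix ι ι F)
    (hG : ∀ u v, QuadraticMap.polar Q u v = u ⬝ᵥ (G *ᵥ v)) {μ : Multiset ℕ} (h : RealM G μ) :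
    ∃ N : Module.End F (ι → F), JType N μ ∧ Skew (QuadraticMap.polarBilin Q) N := by
  obtain ⟨N0, hJ, hN⟩ := h
  refine ⟨Matrix.toLin' N0, hJ, ?_⟩
  intro u v
  show QuadraticMap.polar Q (Matrix.toLin' N0 u) v = - QuadraticMap.polar Q u (Matrix.toLin' N0 v)
  rw [hG, hG, Matrix.toLin'_apply, Matrix.toLin'_apply]
  have h1 : (N0 *ᵥ u) ⬝ᵥ (G *ᵥ v) = u ⬝ᵥ ((N0ᵀ * G) *ᵥ v) := by
    rw [← Matrix.mulVec_mulVec, Matrix.dotProduct_mulVec u N0ᵀ, Matrix.vecMul_transpose]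
  rw [h1, hN, Matrix.neg_mulVec, dotProduct_neg, Matrix.mulVec_mulVec]

end Cfsg.Agent.Lib.Helper19.Uni
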