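import Cfsg.Agent.Lib.Helper21.Uni.Defs
import Cfsg.Prelude.Def_GeometricClasses

set_option autoImplicit false

namespace Cfsg.Agent.Lib.Helper19.Uni

open Matrix Module Cfsg Cfsg.Geo Cfsg.Agent.Lib.Helper67.Elus
open Cfsg.Agent.Lib.Helper21.Uni

variable {F : Type*} [Field F]
variable {ι : Type} [Fintype ι] [DecidableEq ι]

/-- B3 -/
theorem restrict_nondegenerate (Q : QuadraticForm F (ι → F)) (W : Submodule F (ι → F))
    (h : IsNondegenerateOn (QuadraticMap.polar ⇑Q) W) :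
    (LinearMap.BilinForm.restrict (QuadraticMap.polarBilin Q) W).Nondegenerate := by
  refine ⟨fun x hx => ?_, fun x hx => ?_⟩
  · by_contra hne
    have hne' : (x : ι → F) ≠ 0 := fun h0 => hne (Subtype.ext h0)
    obtain ⟨-, y, hyW, hy⟩ := h x x.2 hne'
    exact hy (hx ⟨y, hyW⟩)
  · by_contra hne
    have hne' : (x : ι → F) ≠ 0 := fun h0 => hne (Subtype.ext h0)
    obtain ⟨⟨y, hyW, hy⟩, -⟩ := h x x.2 hne'
    exact hy (hx ⟨y, hyW⟩)

end Cfsg.Agent.Lib.Helper19.Uni
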