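import Cfsg.Agent.Lib.Helper21.Uni.Defs
import Cfsg.Agent.Lib.Helper44.Transport

set_option autoImplicit false

namespace Cfsg.Agent.Lib.Helper19.Uni

open Matrix Module Cfsg Cfsg.Agent.Lib.Helper67.Elus
open Cfsg.Agent.Lib.Helper21.Uni

variable {F : Type*} [Field F]
variable {ι : Type} [Fintype ι] [DecidableEq ι]

/-- B4 -/
theorem exists_gl_of_equiv (h2 : (2 : F) ≠ 0) (Q : QuadraticForm F (ι → F))
    (x : (ι → F) ≃ₗ[F] (ι → F))
    (hx : ∀ u v, QuadraticMap.polarBilin Q (x u) (x v) = QuadraticMap.polarBilin Q u v) :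
    ∃ g : GL ι F, g ∈ Cfsg.isometryGroup F ⇑Q ∧ (∀ v, (g : Matrix ι ι F) *ᵥ v = x v) ∧
      ∀ k : ℕ, x ^ k = 1 → g ^ k = 1 := by
  have hmv : ∀ v, ((Cfsg.Agent.Lib.Helper44.glEquiv.symm x : GL ι F) : Matrix ι ι F) *ᵥ v = x v := by
    intro v
    rw [← Cfsg.Agent.Lib.Helper44.glEquiv_apply]
    simp
  refine ⟨Cfsg.Agent.Lib.Helper44.glEquiv.symm x, ?_, hmv, ?_⟩
  · rw [Cfsg.Agent.Lib.Helper44.mem_isometryGroup]
    intro v
    rw [hmv]
    have h1 := hx v v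
    have h3 : QuadraticMap.polar Q (x v) (x v) = QuadraticMap.polar Q v v := h1
    rw [QuadraticMap.polar_self, QuadraticMap.polar_self] at h3
    simpa [h2] using h3
  · intro k hk
    rw [← map_pow, hk, map_one]

end Cfsg.Agent.Lib.Helper19.Uni
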