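import Cfsg.Agent.Lib.Helper21.Uni.Defs

set_option autoImplicit false

namespace Cfsg.Agent.Lib.Helper19.Uni

open Matrix Module Cfsg.Agent.Lib.Helper67.Elus
open Cfsg.Agent.Lib.Helper21.Uni

variable {F : Type*} [Field F]
variable {I J K L : Type} [Fintype I] [Fintype J] [Fintype K] [Fintype L]
  [DecidableEq I] [DecidableEq J] [DecidableEq K] [DecidableEq L]

/-- C1 -/
theorem cg_refl (G : Matrix I I F) : Cg G G := ⟨1, 1, by simp, by simp, by simp⟩

end Cfsg.Agent.Lib.Helper19.Uni
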