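import Cfsg.Agent.Lib.Helper21.Uni.Defs

set_option autoImplicit false

namespace Cfsg.Agent.Lib.Helper19.Uni

open Matrix Module Cfsg.Agent.Lib.Helper67.Elus
open Cfsg.Agent.Lib.Helper21.Uni

variable {F : Type*} [Field F]
variable {I J K L : Type} [Fintype I] [Fintype J] [Fintype K] [Fintype L]
  [DecidableEq I] [DecidableEq J] [DecidableEq K] [DecidableEq L]

/-- C2 -/
theorem cg_trans {G : Matrix I I F} {G' : Matrix J J F} {G'' : Matrix K K F} (h : Cg G G')
    (h' : Cg G' G'') : Cg G G'' := by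
  obtain ⟨P, P', h1, h2, rfl⟩ := h
  obtain ⟨R, R', h3, h4, rfl⟩ := h'
  refine ⟨P * R, R' * P', ?_, ?_, ?_⟩
  · calc P * R * (R' * P') = P * (R * R') * P' := by simp only [Matrix.mul_assoc]
      _ = 1 := by rw [h3, Matrix.mul_one, h1]
  · calc R' * P' * (P * R) = R' * (P' * P) * R := by simp only [Matrix.mul_assoc]
      _ = 1 := by rw [h2, Matrix.mul_one, h4]
  · rw [Matrix.transpose_mul]
    simp only [Matrix.mul_assoc]

end Cfsg.Agent.Lib.Helper19.Uni
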