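import Cfsg.Agent.Lib.Helper21.Uni.Defs

set_option autoImplicit false

namespace Cfsg.Agent.Lib.Helper19.Uni

open Matrix Module Cfsg.Agent.Lib.Helper67.Elus
open Cfsg.Agent.Lib.Helper21.Uni

variable {F : Type*} [Field F]
variable {I J K L : Type} [Fintype I] [Fintype J] [Fintype K] [Fintype L]
  [DecidableEq I] [DecidableEq J] [DecidableEq K] [DecidableEq L]

/-- C3 -/
theorem cg_blocks {X : Matrix I I F} {X' : Matrix J J F} {Y : Matrix K K F} {Y' : Matrix L L F}
    (h : Cg X X') (h' : Cg Y Y') : Cg (bs X Y) (bs X' Y') := by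
  obtain ⟨P, P', h1, h2, rfl⟩ := h
  obtain ⟨R, R', h3, h4, rfl⟩ := h'
  refine ⟨fromBlocks P 0 0 R, fromBlocks P' 0 0 R', ?_, ?_, ?_⟩
  · simp [fromBlocks_multiply, h1, h3]
  · simp [fromBlocks_multiply, h2, h4]
  · simp [bs, fromBlocks_multiply, fromBlocks_transpose]

end Cfsg.Agent.Lib.Helper19.Uni
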