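import Cfsg.Agent.Lib.Helper21.Uni.Defs

set_option autoImplicit false

namespace Cfsg.Agent.Lib.Helper19.Uni

open Matrix Module Cfsg.Agent.Lib.Helper67.Elus
open Cfsg.Agent.Lib.Helper21.Uni

variable {F : Type*} [Field F]
variable {I J K L : Type} [Fintype I] [Fintype J] [Fintype K] [Fintype L]
  [DecidableEq I] [DecidableEq J] [DecidableEq K] [DecidableEq L]

/-- C4 -/
theorem cg_reindex (G : Matrix I I F) (e : J ≃ I) : Cg G (G.submatrix e e) := by
  refine ⟨(1 : Matrix I I F).submatrix id e, (1 : Matrix I I F).submatrix e id, ?_, ?_, ?_⟩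
  · rw [Matrix.submatrix_mul_equiv]
    simp
  · have := Matrix.submatrix_mul (1 : Matrix I I F) (1 : Matrix I I F) e id e Function.bijective_id
    rw [← this]
    simp
  · rw [Matrix.transpose_submatrix, Matrix.transpose_one]
    have h1 : (1 : Matrix I I F).submatrix e id * G = G.submatrix e id := by
      have := Matrix.submatrix_mul (1 : Matrix I I F) G e id id Function.bijective_id
      simpa using this.symm
    rw [h1]
    have h2 := Matrix.submatrix_mul G (1 : Matrix I I F) e id e Function.bijective_id
    simpa using h2

end Cfsg.Agent.Lib.Helper19.Uni
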