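import Cfsg.Agent.Lib.Helper21.Uni.Defs
import Cfsg.Agent.Lib.Helper19.Uni.C4

set_option autoImplicit false

namespace Cfsg.Agent.Lib.Helper19.Uni

open Matrix Module Cfsg.Agent.Lib.Helper67.Elus
open Cfsg.Agent.Lib.Helper21.Uni

variable {F : Type*} [Field F]
variable {I J K L : Type} [Fintype I] [Fintype J] [Fintype K] [Fintype L]
  [DecidableEq I] [DecidableEq J] [DecidableEq K] [DecidableEq L]

/-- C6 -/
theorem cg_assoc (X : Matrix I I F) (Y : Matrix J J F) (Z : Matrix K K F) :
    Cg (bs (bs X Y) Z) (bs X (bs Y Z)) := by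
  have h := cg_reindex (bs (bs X Y) Z) (Equiv.sumAssoc I J K).symm
  convert h using 1
  ext i j
  rcases i with i | (i | i) <;> rcases j with j | (j | j) <;> simp [bs]

end Cfsg.Agent.Lib.Helper19.Uni
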