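import Cfsg.Agent.Lib.Helper21.Uni.Defs
import Cfsg.Agent.Lib.Helper19.Uni.C4

set_option autoImplicit false

namespace Cfsg.Agent.Lib.Helper19.Uni

open Matrix Module Cfsg.Agent.Lib.Helper67.Elus
open Cfsg.Agent.Lib.Helper21.Uni

variable {F : Type*} [Field F]
variable {I J K L : Type} [Fintype I] [Fintype J] [Fintype K] [Fintype L]
  [DecidableEq I] [DecidableEq J] [DecidableEq K] [DecidableEq L]

/-- C8 -/
theorem cg_hy_congr (e : I ≃ J) : Cg (Hy I F) (Hy J F) := by
  have h := cg_reindex (Hy I F) (Equiv.sumCongr e.symm e.symm)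
  convert h using 1
  ext i j
  rcases i with i | i <;> rcases j with j | j <;> simp [Hy, Matrix.one_apply]

end Cfsg.Agent.Lib.Helper19.Uni
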