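import Cfsg.Agent.Lib.Helper21.Uni.Defs

set_option autoImplicit false

namespace Cfsg.Agent.Lib.Helper19.Uni

open Matrix Module Cfsg.Agent.Lib.Helper67.Elus
open Cfsg.Agent.Lib.Helper21.Uni

variable {F : Type*} [Field F]
variable {I J K L : Type} [Fintype I] [Fintype J] [Fintype K] [Fintype L]
  [DecidableEq I] [DecidableEq J] [DecidableEq K] [DecidableEq L]

/-- C9 -/
theorem cg_hy_of_unit (D D' : Matrix I I F) (h1 : D * D' = 1) (h2 : D' * D = 1) :
    Cg (fromBlocks 0 D Dᵀ 0 : Matrix (I ⊕ I) (I ⊕ I) F) (Hy I F) := by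
  refine ⟨fromBlocks 1 0 0 D', fromBlocks 1 0 0 D, ?_, ?_, ?_⟩
  · simp [fromBlocks_multiply, h2]
  · simp [fromBlocks_multiply, h1]
  · have h3 : D'ᵀ * Dᵀ = 1 := by rw [← Matrix.transpose_mul, h1, Matrix.transpose_one]
    simp [Hy, fromBlocks_multiply, fromBlocks_transpose, h1, h3]

end Cfsg.Agent.Lib.Helper19.Uni
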